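import Cfsg.Agent.Lib.Helper50.RU.Defs

set_option autoImplicit false

namespace Cfsg.Agent.Lib.Helper50.RU

open Cfsg.Agent.Lib.Helper50.Herm Cfsg.Agent.Lib.Helper50.GUConj Cfsg.Agent.Lib.Helper50.CC Cfsg.Agent.Lib.Helper48

variable {K : Type*} [Field K] [Fintype K] {q n : ℕ}

omit [Fintype K] in
theorem cji_det (g : Matrix.GeneralLinearGroup (Fin n) K) :
    IsUnit (g : Matrix (Fin n) (Fin n) K).det :=
  (Matrix.isUnit_iff_isUnit_det _).1 g.isUnit

omit [Fintype K] in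
/-- CJI. -/
theorem reg_conj (z A : Matrix.GeneralLinearGroup (Fin n) K) (hA : Reg (A : Matrix (Fin n) (Fin n) K)) :
    Reg ((z * A * z⁻¹ : Matrix.GeneralLinearGroup (Fin n) K) : Matrix (Fin n) (Fin n) K) := by
  have e : ((z * A * z⁻¹ : Matrix.GeneralLinearGroup (Fin n) K) : Matrix (Fin n) (Fin n) K) - 1
      = (z : Matrix (Fin n) (Fin n) K) * ((A : Matrix (Fin n) (Fin n) K) - 1) *
        ((z⁻¹ : Matrix.GeneralLinearGroup (Fin n) K) : Matrix (Fin n) (Fin n) K) := by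
    rw [Units.val_mul, Units.val_mul, mul_sub, sub_mul, mul_one, ← Units.val_mul z z⁻¹,
      mul_inv_cancel, Units.val_one]
  constructor
  · rw [e, Units.conj_pow, hA.1, mul_zero, zero_mul]
  · rw [e, Matrix.rank_mul_eq_left_of_isUnit_det _ _ (cji_det z⁻¹),
      Matrix.rank_mul_eq_right_of_isUnit_det _ _ (cji_det z), hA.2]

end Cfsg.Agent.Lib.Helper50.RU
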