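import Cfsg.Agent.Lib.Helper50.SUCard
import Cfsg.Agent.Lib.Helper50.GUConj2
import Cfsg.Agent.Lib.Helper50.CC.GU1
import Cfsg.Agent.S2578

/-!
# Ladder RU: regular unipotent classes of `SU_n(q)`.  Definitions.
-/

set_option autoImplicit false

namespace Cfsg.Agent.Lib.Helper50.RU

open Cfsg.Agent.Lib.Helper50.Herm

variable {K : Type*} [Field K] {q : ℕ}

/-- a matrix is regular unipotent -/
def Reg {n : ℕ} (M : Matrix (Fin n) (Fin n) K) : Prop := (M - 1) ^ n = 0 ∧ (M - 1).rank = n - 1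

/-- the inclusion of `SU` in `GU` -/
def suToGU (n : ℕ) : ↥(Cfsg.SU n K q) →* ↥(Cfsg.GU n K q) where
  toFun s := ⟨Matrix.SpecialLinearGroup.toGL s.1, fun u v => s.2 u v⟩
  map_one' := by apply Subtype.ext; apply Units.ext; rfl
  map_mul' s t := by apply Subtype.ext; apply Units.ext; rfl

theorem suToGU_coe (n : ℕ) (s : ↥(Cfsg.SU n K q)) :
    ((suToGU n s : ↥(Cfsg.GU n K q)) : Matrix.GeneralLinearGroup (Fin n) K) =
      Matrix.SpecialLinearGroup.toGL s.1 := rfl

theorem suToGU_injective (n : ℕ) : Function.Injective (suToGU (K := K) (q := q) n) := by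
  intro s t h
  apply Subtype.ext
  apply Subtype.ext
  have := congrArg (fun x : ↥(Cfsg.GU n K q) => (x.1.1 : Matrix (Fin n) (Fin n) K)) h
  exact this

theorem detGU_eq_one_iff (n : ℕ) (g : ↥(Cfsg.GU n K q)) :
    detGU n g = 1 ↔ g ∈ (suToGU (K := K) (q := q) n).range := by
  constructor
  · intro h
    have h1 : (g.1.1 : Matrix (Fin n) (Fin n) K).det = 1 := congrArg Units.val h
    refine ⟨⟨⟨g.1.1, h1⟩, fun u v => g.2 u v⟩, ?_⟩
    apply Subtype.ext; apply Units.ext; rfl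
  · rintro ⟨s, rfl⟩
    apply Units.ext
    exact s.1.2

end Cfsg.Agent.Lib.Helper50.RU
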