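import Cfsg.Agent.Lib.Helper50.RU.CJI
import Cfsg.Agent.Lib.Helper50.RU.CJG

set_option autoImplicit false

namespace Cfsg.Agent.Lib.Helper50.RU

open Cfsg.Agent.Lib.Helper50.Herm Cfsg.Agent.Lib.Helper50.GUConj Cfsg.Agent.Lib.Helper50.CC Cfsg.Agent.Lib.Helper48

variable {K : Type*} [Field K] [Fintype K] {q n : ℕ}

/-- HX. -/
theorem reg_iff_conj (hK : Fintype.card K = q ^ 2) (hn : 1 ≤ n) (u₀ u : ↥(Cfsg.SU n K q))
    (h0 : Reg ((Matrix.SpecialLinearGroup.toGL u₀.1 : Matrix.GeneralLinearGroup (Fin n) K) :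
      Matrix (Fin n) (Fin n) K)) :
    Reg ((Matrix.SpecialLinearGroup.toGL u.1 : Matrix.GeneralLinearGroup (Fin n) K) : Matrix (Fin n) (Fin n) K) ↔
      ∃ g : ↥(Cfsg.GU n K q), g * suToGU n u₀ * g⁻¹ = suToGU n u := by
  constructor
  · intro h
    obtain ⟨x, hx⟩ := reg_gl_conj hn _ _ h0 h
    obtain ⟨z, hz, hzc⟩ := conj_GU hK _ _ x (suToGU n u₀).2 (suToGU n u).2 hx
    exact ⟨⟨z, hz⟩, Subtype.ext hzc⟩
  · rintro ⟨g, hg⟩
    have h1 := reg_conj g.1 _ h0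
    have h2 : (g.1 * Matrix.SpecialLinearGroup.toGL u₀.1 * g.1⁻¹ : Matrix.GeneralLinearGroup (Fin n) K)
        = Matrix.SpecialLinearGroup.toGL u.1 := congrArg Subtype.val hg
    rw [h2] at h1
    exact h1

end Cfsg.Agent.Lib.Helper50.RU
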