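import Cfsg.Agent.Lib.Helper50.RU.Defs

/-! Ladder RU, rung RNG: every element of norm one is the determinant of a unitary matrix. -/

set_option autoImplicit false

namespace Cfsg.Agent.Lib.Helper50.RU

open Cfsg.Agent.Lib.Helper50.Herm Cfsg.Agent.Lib.Helper50.GUConj Cfsg.Agent.Lib.Helper50.CC Cfsg.Agent.Lib.Helper48

variable {K : Type*} [Field K] [Fintype K] {q n : ℕ}

/-- RNG. -/
theorem mem_range_detGU (hK : Fintype.card K = q ^ 2) (hn : 1 ≤ n) (c : Kˣ) (hc : c ^ (q + 1) = 1) :
    c ∈ (detGU (K := K) (q := q) n).range := by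
  classical
  obtain ⟨k, rfl⟩ : ∃ k, n = k + 1 := ⟨n - 1, by omega⟩
  have hx : (c : K) ^ (q + 1) = 1 := by
    rw [← Units.val_pow_eq_pow_val, hc, Units.val_one]
  have hx0 : (c : K) ≠ 0 := c.ne_zero
  let d : Fin (k + 1) → K := Function.update (fun _ => 1) 0 (c : K)
  have hdn : ∀ i, d i * d i ^ q = 1 := by
    intro i
    by_cases hi : i = 0
    · subst hi; simpa [d, pow_succ'] using hx
    · simp [d, hi]
  have hdet : (Matrix.diagonal d).det = (c : K) := by
    rw [Matrix.det_diagonal, Fin.prod_univ_succ]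
    simp [d]
  let g : Matrix.GeneralLinearGroup (Fin (k + 1)) K :=
    Matrix.GeneralLinearGroup.mkOfDetNeZero (Matrix.diagonal d) (by rw [hdet]; exact hx0)
  have hg : g ∈ Cfsg.GU (k + 1) K q := by
    apply mem_GU_of_gram hK
    change (Matrix.diagonal d).transpose * (Matrix.diagonal d).map (frobQ hK) = 1
    rw [Matrix.diagonal_transpose, Matrix.diagonal_map (map_zero _), Matrix.diagonal_mul_diagonal,
      ← Matrix.diagonal_one]
    congr 1
    ext i
    exact hdn i
  refine ⟨⟨g, hg⟩, ?_⟩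
  apply Units.ext
  exact hdet

end Cfsg.Agent.Lib.Helper50.RU
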