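import Cfsg.Agent.Lib.Helper50.RU.Defs

set_option autoImplicit false

namespace Cfsg.Agent.Lib.Helper50.RU

open Cfsg.Agent.Lib.Helper50.Herm Cfsg.Agent.Lib.Helper50.GUConj Cfsg.Agent.Lib.Helper50.CC Cfsg.Agent.Lib.Helper48

variable {K : Type*} [Field K] [Fintype K] {q n : ℕ}

/-- SCA. -/
theorem scalar_mem (hK : Fintype.card K = q ^ 2) (c : Kˣ) (hc : c ^ (q + 1) = 1) :
    Matrix.GeneralLinearGroup.scalar (Fin n) c ∈ Cfsg.GU n K q := by
  rw [mem_GU_iff_dag hK, Matrix.GeneralLinearGroup.coe_scalar, dag_scalar, ← map_mul, ← pow_succ]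
  have h1 : (c : K) ^ (q + 1) = 1 := by
    rw [← Units.val_pow_eq_pow_val, hc, Units.val_one]
  rw [h1, map_one]

end Cfsg.Agent.Lib.Helper50.RU
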